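import Cfsg.Agent.Co0Sections.MatAut
import Mathlib.GroupTheory.Index

/-!
An upper bound on a subgroup of `Co0` centralising an element: a product of counts of minimal
vectors with prescribed inner products against the translates of earlier base vectors.
-/

set_option autoImplicit false

namespace Cfsg.Agent.Co0Sections

open Cfsg Cfsg.Agent.Golay Cfsg.Agent.Leech

theorem smul_zsmul (g : Co0) (n : ℤ) (x : leechLattice) : g • (n • x) = n • (g • x) := by
  let φ : leechLattice →+ leechLattice := AddMonoidHom.mk' (fun v => g • v) (co0_add g)
  exact map_zsmul φ n x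

theorem smul_pow_fix {a h : Co0} (hc : h * a = a * h) {x : leechLattice} (hx : h • x = x) (n : ℕ) :
    h • (a ^ n • x) = a ^ n • x := by
  rw [← mul_smul, (Commute.pow_right hc n).eq, mul_smul, hx]

/-- A stabiliser step: the index is at most the number of minimal vectors having the inner
product `T` with a vector fixed by the whole group. -/
theorem index_step (X : Subgroup Co0) (v : leechLattice) (hv : sqNorm v.1 = 32) (u : leechLattice)
    (hu : ∀ h ∈ X, h • u = u) (us : List ℤ) (hlen : us.length = 24) (hus : ofList us = u.1)
    (T : ℤ) (hT : dotInt u.1 v.1 = T) (n : ℕ) (hn : countMin us T ≤ n) :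
    Nat.card X ≤ n * Nat.card ↥(X ⊓ MulAction.stabilizer Co0 v) := by
  haveI : Finite Co0 := finite_Co0
  have horb : Nat.card (MulAction.orbit X v) ≤ n := by
    have hmem : ∀ w ∈ MulAction.orbit X v,
        (w : leechLattice).1 ∈ minList.filter (fun x => dotInt (ofList us) x == T) := by
      rintro w ⟨⟨g, hg⟩, rfl⟩
      rw [List.mem_filter, beq_iff_eq]
      refine ⟨mem_minList (g • v).2 ((g.2.2 v).trans hv), ?_⟩
      rw [hus]
      show dotInt u.1 (g • v).1 = T
      conv_lhs => rw [← hu g hg]
      rw [co0_dotInt, hT]
    let L := minList.filter fun x => dotInt (ofList us) x == T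
    let f : MulAction.orbit X v → {x // x ∈ L.toFinset} :=
      fun w => ⟨w.1.1, List.mem_toFinset.mpr (hmem w.1 w.2)⟩
    have hf : Function.Injective f := fun a b h => by
      exact Subtype.ext (Subtype.ext (congrArg (fun z : {x // x ∈ L.toFinset} => z.1) h))
    refine (Nat.card_le_card_of_injective f hf).trans ?_
    rw [Nat.card_eq_finsetCard]
    refine le_trans (List.toFinset_card_le L) ?_
    rw [← List.countP_eq_length_filter, countP_minList us hlen]
    exact hn
  rw [← (MulAction.stabilizer X v).card_mul_index, MulAction.index_stabilizer, mul_comm]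
  refine Nat.mul_le_mul (by rwa [← Nat.card_coe_set_eq]) (le_of_eq ?_)
  have e : MulAction.stabilizer X v = (X ⊓ MulAction.stabilizer Co0 v).subgroupOf X := by
    ext g
    simp only [MulAction.mem_stabilizer_iff, Subgroup.mem_subgroupOf, Subgroup.mem_inf, g.2, true_and]
    exact Iff.rfl
  rw [e]
  exact Nat.card_congr (Subgroup.subgroupOfEquivOfLe inf_le_left).toEquiv

/-- A stabiliser step: the index is at most the length of a list meeting the whole orbit. -/
theorem index_step_list (X : Subgroup Co0) (v : leechLattice) (L : List (GolayPt → ℤ))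
    (hL : ∀ g ∈ X, (g • v).1 ∈ L) :
    Nat.card X ≤ L.length * Nat.card ↥(X ⊓ MulAction.stabilizer Co0 v) := by
  have : Finite Co0 := finite_Co0
  have horb : Nat.card (MulAction.orbit X v) ≤ L.length := by
    let f : MulAction.orbit X v → {x // x ∈ L.toFinset} :=
      fun w => ⟨w.1.1, List.mem_toFinset.mpr (by
        obtain ⟨w, ⟨g, hg⟩, rfl⟩ := w
        exact hL g hg)⟩
    have hf : Function.Injective f := fun a b h => by
      exact Subtype.ext (Subtype.ext (congrArg (fun z : {x // x ∈ L.toFinset} => z.1) h))
    refine (Nat.card_le_card_of_injective f hf).trans ?_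
    rw [Nat.card_eq_finsetCard]
    exact List.toFinset_card_le L
  rw [← (MulAction.stabilizer X v).card_mul_index, MulAction.index_stabilizer, mul_comm]
  refine Nat.mul_le_mul (by rwa [← Nat.card_coe_set_eq]) (le_of_eq ?_)
  have e : MulAction.stabilizer X v = (X ⊓ MulAction.stabilizer Co0 v).subgroupOf X := by
    ext g
    simp only [MulAction.mem_stabilizer_iff, Subgroup.mem_subgroupOf, Subgroup.mem_inf, g.2, true_and]
    exact Iff.rfl
  rw [e]
  exact Nat.card_congr (Subgroup.subgroupOfEquivOfLe inf_le_left).toEquiv

/-- A list of vectors spanning rationally, as certified by combinations. -/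
def spanOK (B : List (GolayPt → ℤ)) (D : ℤ) (C : List (List ℤ)) : Bool :=
  (List.range 24).all fun i => (List.range 24).all fun j =>
    ((List.range B.length).map fun k => (C.getD i []).getD k 0 * B.getD k 0 (ptOf j)).sum ==
      bif Nat.beq i j then 8 * D else 0

/-- An element fixing a rationally spanning list of vectors is trivial. -/
theorem eq_one_of_span {g : Co0} {B : List leechLattice} {D : ℤ} {C : List (List ℤ)} (hD : D ≠ 0)
    (h : spanOK (B.map Subtype.val) D C = true) (hfix : ∀ x ∈ B, g • x = x) : g = 1 := by
  refine co0_ext fun j => ?_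
  rw [one_smul]
  simp only [spanOK, List.all_eq_true, List.mem_range, beq_iff_eq, List.length_map] at h
  have hsum : ∀ l : List ℕ, (∀ k ∈ l, k < B.length) →
      g • (l.map fun k => (C.getD (ptIdx j) []).getD k 0 • B.getD k 0).sum =
        (l.map fun k => (C.getD (ptIdx j) []).getD k 0 • B.getD k 0).sum := by
    intro l hl
    induction l with
    | nil =>
      have := smul_zsmul g 0 0
      simpa using this
    | cons k l ih =>
      simp only [List.map_cons, List.sum_cons, co0_add, smul_zsmul,
        ih fun m hm => hl m (List.mem_cons_of_mem _ hm)]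
      rw [hfix _ (by rw [List.getD_eq_getElem _ _ (hl k List.mem_cons_self)]; exact List.getElem_mem _)]
  set S := ((List.range B.length).map fun k => (C.getD (ptIdx j) []).getD k 0 • B.getD k 0).sum with hS
  have hSD : S = D • crossL j := by
    refine Subtype.ext (funext fun p => ?_)
    have e : S.1 p = ((List.range B.length).map fun k =>
        (C.getD (ptIdx j) []).getD k 0 * (B.map Subtype.val).getD k 0 p).sum := by
      rw [hS]
      generalize List.range B.length = l
      induction l with
      | nil => rfl
      | cons k l ih =>
        simp only [List.map_cons, List.sum_cons, AddSubgroup.coe_add, Pi.add_apply, ih,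
          AddSubgroup.coe_zsmul, Pi.smul_apply, smul_eq_mul]
        congr 2
        rw [List.getD_eq_getElem?_getD, List.getD_eq_getElem?_getD, List.getElem?_map]
        cases B[k]? <;> rfl
    have h' := h (ptIdx j) (ptIdx_lt j) (ptIdx p) (ptIdx_lt p)
    rw [ptOf_ptIdx] at h'
    rw [e, h', AddSubgroup.coe_zsmul, Pi.smul_apply, smul_eq_mul]
    by_cases hp : p = j
    · subst hp
      rw [Nat.beq_refl]; simp [crossL, Leech.cross]; ring
    · have : Nat.beq (ptIdx j) (ptIdx p) = false := by
        rw [Bool.eq_false_iff]
        exact fun e => hp (ptIdx_injective (Nat.eq_of_beq_eq_true e)).symm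
      rw [this]; simp [crossL, Leech.cross, hp]
  have hg : g • (D • crossL j) = D • crossL j := hSD ▸ hsum _ fun k hk => List.mem_range.mp hk
  rw [smul_zsmul] at hg
  refine Subtype.ext (funext fun p => ?_)
  have := congrFun (congrArg Subtype.val hg) p
  simp only [AddSubgroup.coe_zsmul, Pi.smul_apply, smul_eq_mul] at this
  exact mul_left_cancel₀ hD this

end Cfsg.Agent.Co0Sections
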