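import Cfsg.Agent.Leech.CountMin

/-!
The count of minimal vectors with a given inner product, cut into slices of the code words, so
that each evaluation stays small.
-/

set_option autoImplicit false

namespace Cfsg.Agent.Co0Sections

open Cfsg Cfsg.Agent.Golay Cfsg.Agent.Leech

/-- A slice of 512 code words. -/
def wordSlice (c : ℕ) : List ℕ := ((wordTab rows).drop (512 * c)).take 512

theorem wordTab_slices : (List.range 8).flatMap wordSlice = wordTab rows := by
  have h : ((List.range 8).flatMap wordSlice == wordTab rows) = true := by decide +kernel
  exact eq_of_beq h

/-- The pairs counted. -/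
def pairPart (us : List ℤ) (T : ℤ) : ℕ :=
  ((List.range 24).map fun i => ((List.range 24).map fun j =>
      bif Nat.blt i j then
        [us.getD i 0 * 4 + us.getD j 0 * 4, us.getD i 0 * 4 + us.getD j 0 * (-4),
          us.getD i 0 * (-4) + us.getD j 0 * 4,
          us.getD i 0 * (-4) + us.getD j 0 * (-4)].countP fun s => s == T
      else 0).sum).sum

/-- The vectors on octads counted, for the words of a list. -/
def octPart (us : List ℤ) (T : ℤ) (L : List ℕ) : ℕ :=
  (L.map fun r =>
      bif pop24 r == 8 then
        (signSums ((posList r).map fun i => us.getD i 0) false).countP fun s => s == T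
      else 0).sum

/-- The odd vectors counted, for the words of a list. -/
def oddPart (us : List ℤ) (T : ℤ) (L : List ℕ) : ℕ :=
  (L.map fun r => signedHits (us.map fun a => a * 4) r (Int.sub (signedTotal us r) T)).sum

theorem countMin_slices (us : List ℤ) (T : ℤ) : countMin us T =
    pairPart us T + ((List.range 8).map fun c => octPart us T (wordSlice c)).sum +
      ((List.range 8).map fun c => oddPart us T (wordSlice c)).sum := by
  have key : ∀ (f : ℕ → ℕ) (L : List ℕ),
      (L.map fun c => ((wordSlice c).map f).sum).sum = ((L.flatMap wordSlice).map f).sum := by
    intro f L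
    induction L with
    | nil => rfl
    | cons c L ih => simp [ih]
  simp only [octPart, oddPart, key, wordTab_slices]
  rfl

end Cfsg.Agent.Co0Sections
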