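import Cfsg.Agent.Co0Sections.Bound
import Cfsg.Agent.Co0Sections.FiveData
import Cfsg.Agent.J2Type.Enum.Bound

/-!
The computations on the tables of the element of order 5 and its centraliser.
-/

set_option autoImplicit false

namespace Cfsg.Agent.Co0Sections.Five

open Cfsg Cfsg.Agent.Golay Cfsg.Agent.Leech
open Cfsg.Agent.J2Type.Enum (relC linkW)

/-- The generator tables. -/
def gTab (i : Fin 6) : List (List ℤ) := [gTab0, gTab1, gTab2, gTab3, gTab4, gTab5].getD i.val []

theorem tables_ok : (okR aTab && Nat.beq aTab.length 24 &&
    (List.finRange 6).all fun i => okR (gTab i) && Nat.beq (gTab i).length 24) = true := by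
  decide +kernel

theorem pack_ok : ((packR aTab == aPack) && (aPack.map (fun r => -r) == cPack) &&
    (List.finRange 6).all fun i => (packR (gTab i) == gPack.getD (2 * i.val) []) &&
      (packR (trTab (gTab i)) == gPack.getD (2 * i.val + 1) [])) = true := by
  decide +kernel

theorem packR_aTab : packR aTab = aPack := by
  have h := pack_ok
  simp only [Bool.and_eq_true, beq_iff_eq] at h
  exact h.1.1

theorem cPack_eq : aPack.map (fun r => -r) = cPack := by
  have h := pack_ok
  simp only [Bool.and_eq_true, beq_iff_eq] at h
  exact h.1.2

theorem packR_gTab (i : Fin 6) : packR (gTab i) = gPack.getD (2 * i.val) [] ∧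
    packR (trTab (gTab i)) = gPack.getD (2 * i.val + 1) [] := by
  have h := pack_ok
  simp only [Bool.and_eq_true, List.all_eq_true, beq_iff_eq] at h
  exact h.2 i (List.mem_finRange i)

/-- The map of `aEl`. -/
def aI : ℤ → ℤ := appI aPack

/-- The map of a generator. -/
def gI (i : Fin 6) : ℤ → ℤ := appI (gPack.getD (2 * i.val) [])

/-- The map of the inverse of a generator. -/
def gInvI (i : Fin 6) : ℤ → ℤ := appI (gPack.getD (2 * i.val + 1) [])

/-- The map of a power of `cEl`. -/
def cI (n : ℕ) : ℤ → ℤ := powI cPack n

theorem a_checks : (sameI (powI aPack 5) id && movesI aI && sameI (cI 6) aI &&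
    movesI (cI 2) && movesI (cI 5) && sameI (cI 10) id) = true := by
  decide +kernel

/-- The maps of the letters. -/
def lettI (l : ℕ) : ℤ → ℤ :=
  [id, gI 0, gInvI 0, gI 1, gInvI 1, gI 2, gInvI 2, gI 3, gInvI 3, gI 4, gInvI 4, gI 5, gInvI 5].getD l id

theorem comm_checks : ((List.finRange 6).all fun i => sameI (gI i ∘ aI) (aI ∘ gI i)) = true := by
  decide +kernel

/-- The map of a word. -/
def evI : List ℕ → ℤ → ℤ
  | [], V => V
  | l :: w, V => lettI l (evI w V)

theorem rel_checks : ((List.range 25).all fun k =>
    sameI (evI ((relC ++ [linkW]).getD k [])) (cI (relExp.getD k 0))) = true := by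
  decide +kernel

theorem p_checks : ((List.range 10).all fun n => !sameI (gI 3) (cI n)) = true := by
  decide +kernel

/-- The vectors. -/
def baseF (k : ℕ) : GolayPt → ℤ := ofList (baseTab.getD k [])

theorem base_checks : ((List.range 24).all fun k => inLeechB (baseF k) &&
    decide (sqNorm (baseF k) = 32) &&
    (powI aPack (k % 4) (encI (baseF (k / 4 * 4))) == encI (baseF k))) = true := by
  decide +kernel

/-- Its coordinates. -/
def combF : List ℕ → GolayPt → ℤ
  | [] => 0
  | k :: l => baseF k + (128 : ℤ) • combF l

theorem first_checks : (eqB (ofList firstVec) (combF [0, 1, 2, 3]) && Nat.beq firstVec.length 24 &&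
    Nat.beq candTab.length 25 && decide (candTab.map fun l => encI (ofList l)).Nodup &&
    candTab.all fun l => inLeechB (ofList l) && decide (sqNorm (ofList l) = 32) &&
      (dotL (ofList firstVec) (ofList l) == firstDot)) = true := by
  decide +kernel

/-- The candidates agreeing with a base vector on the translates of the earlier ones. -/
def levCand (j : ℕ) : List (GolayPt → ℤ) :=
  (candTab.map ofList).filter fun w => (List.range (4 * (j + 1))).all fun k =>
    dotL (baseF k) w == dotL (baseF k) (baseF (4 * (j + 1)))

theorem lev_checks : ((List.range 5).all fun j =>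
    Nat.beq (levCand j).length (levCount.getD j 0) &&
    (dotL (combF [0, 1, 2, 3]) (baseF (4 * (j + 1))) == firstDot)) = true := by
  decide +kernel

theorem span_checks : spanOK ((List.range 24).map baseF) 1 spanTab = true := by
  decide +kernel

end Cfsg.Agent.Co0Sections.Five
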