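import Cfsg.Agent.Co0Sections.CountSplit
import Cfsg.Agent.Co0Sections.FiveData

/-!
Exactly 25 minimal vectors have the prescribed inner product with the packed vector of the first level.
-/

set_option autoImplicit false
-- one evaluation at a time, to bound the memory
set_option Elab.async false

namespace Cfsg.Agent.Co0Sections.Five

open Cfsg.Agent.Leech

theorem pair_count : pairPart firstVec firstDot = 0 := by decide +kernel

theorem oct_count_0 : octPart firstVec firstDot (wordSlice 0) = 5 := by
  decide +kernel

theorem oct_count_1 : octPart firstVec firstDot (wordSlice 1) = 3 := by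
  decide +kernel

theorem oct_count_2 : octPart firstVec firstDot (wordSlice 2) = 1 := by
  decide +kernel

theorem oct_count_3 : octPart firstVec firstDot (wordSlice 3) = 1 := by
  decide +kernel

theorem oct_count_4 : octPart firstVec firstDot (wordSlice 4) = 2 := by
  decide +kernel

theorem oct_count_5 : octPart firstVec firstDot (wordSlice 5) = 1 := by
  decide +kernel

theorem oct_count_6 : octPart firstVec firstDot (wordSlice 6) = 0 := by
  decide +kernel

theorem oct_count_7 : octPart firstVec firstDot (wordSlice 7) = 0 := by
  decide +kernel

theorem odd_count_0 : oddPart firstVec firstDot (wordSlice 0) = 4 := by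
  decide +kernel

theorem odd_count_1 : oddPart firstVec firstDot (wordSlice 1) = 0 := by
  decide +kernel

theorem odd_count_2 : oddPart firstVec firstDot (wordSlice 2) = 3 := by
  decide +kernel

theorem odd_count_3 : oddPart firstVec firstDot (wordSlice 3) = 1 := by
  decide +kernel

theorem odd_count_4 : oddPart firstVec firstDot (wordSlice 4) = 2 := by
  decide +kernel

theorem odd_count_5 : oddPart firstVec firstDot (wordSlice 5) = 0 := by
  decide +kernel

theorem odd_count_6 : oddPart firstVec firstDot (wordSlice 6) = 2 := by
  decide +kernel

theorem odd_count_7 : oddPart firstVec firstDot (wordSlice 7) = 0 := by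
  decide +kernel

theorem first_count : countMin firstVec firstDot = 25 := by
  simp only [countMin_slices, show List.range 8 = [0, 1, 2, 3, 4, 5, 6, 7] from rfl, List.map_cons,
    List.map_nil, List.sum_cons, List.sum_nil, Nat.reduceAdd, pair_count,
    oct_count_0,
    oct_count_1,
    oct_count_2,
    oct_count_3,
    oct_count_4,
    oct_count_5,
    oct_count_6,
    oct_count_7,
    odd_count_0,
    odd_count_1,
    odd_count_2,
    odd_count_3,
    odd_count_4,
    odd_count_5,
    odd_count_6,
    odd_count_7]

end Cfsg.Agent.Co0Sections.Five
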