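import Cfsg.Agent.Co0Sections.Bound
import Cfsg.Agent.Co0Sections.FiveCount
import Cfsg.Agent.Co0Sections.FiveChecks
import Cfsg.Agent.J2Type.Enum.Iso
import Mathlib.GroupTheory.QuotientGroup.Basic

/-!
The centraliser of an element of order 5 of `Co0` modulo that element and the centre is the
Hall–Janko group.
-/

set_option autoImplicit false

namespace Cfsg.Agent.Co0Sections.Five

open Cfsg Cfsg.Agent.Golay Cfsg.Agent.Leech
open Cfsg.Agent.J2Type.Enum (lett ev Rels relC linkW)

/-! ### The elements -/

theorem exists_a : ∃ g : Co0, HasMat g aPack := by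
  rw [← packR_aTab]
  have h := tables_ok
  simp only [Bool.and_eq_true] at h
  obtain ⟨g, hg, -⟩ := exists_hasMat (Nat.eq_of_beq_eq_true h.1.2) h.1.1
  exact ⟨g, hg⟩

theorem exists_gen (i : Fin 6) :
    ∃ g : Co0, HasMat g (packR (gTab i)) ∧ HasMat g⁻¹ (packR (trTab (gTab i))) := by
  have h := tables_ok
  simp only [Bool.and_eq_true, List.all_eq_true] at h
  exact exists_hasMat (Nat.eq_of_beq_eq_true (h.2 i (List.mem_finRange i)).2)
    (h.2 i (List.mem_finRange i)).1

/-- The element of order 5. -/
noncomputable def aEl : Co0 := exists_a.choose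

/-- The six lifts. -/
noncomputable def gEl (i : Fin 6) : Co0 := (exists_gen i).choose

theorem acts_a : Acts aEl aI := exists_a.choose_spec.acts

theorem acts_gen (i : Fin 6) : Acts (gEl i) (gI i) := by
  rw [gI, ← (packR_gTab i).1]
  exact (exists_gen i).choose_spec.1.acts

theorem acts_id : Acts (1 : Co0) id := fun x _ => by rw [one_smul]; rfl

/-! ### The element of order 10 -/

theorem negCo0_mul (g : Co0) : negCo0 * g = g * negCo0 := by
  refine co0_ext fun j => ?_
  rw [mul_smul, mul_smul, negCo0_smul, negCo0_smul, co0_neg]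

theorem negCo0_center : negCo0 ∈ Subgroup.center Co0 :=
  Subgroup.mem_center_iff.2 fun g => (negCo0_mul g).symm

/-- The product of the element with the negation. -/
noncomputable def cEl : Co0 := negCo0 * aEl

theorem encI_neg (x : GolayPt → ℤ) : encI (-x) = -encI x := by
  refine eq_neg_of_add_eq_zero_left ?_
  rw [← encI_add, neg_add_cancel]
  simp [encI]

theorem hasMat_c : HasMat cEl cPack := by
  rw [← cPack_eq]
  refine ⟨by rw [List.length_map]; exact exists_a.choose_spec.1, fun i hi => ?_⟩
  have hl := exists_a.choose_spec.1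
  rw [List.getD_eq_getElem _ _ (by simpa [hl] using hi), List.getElem_map,
    ← List.getD_eq_getElem _ 0, exists_a.choose_spec.2 i hi, cEl, mul_smul, negCo0_smul,
    AddSubgroup.coe_neg, encI_neg]
  rfl

theorem acts_c (n : ℕ) : Acts (cEl ^ n) (cI n) := hasMat_c.acts_pow n

theorem orderOf_a : orderOf aEl = 5 := by
  have h := a_checks
  simp only [Bool.and_eq_true] at h
  have : Fact (Nat.Prime 5) := ⟨by norm_num⟩
  exact orderOf_eq_prime ((exists_a.choose_spec.acts_pow 5).eq acts_id h.1.1.1.1.1)
    (acts_a.ne_one h.1.1.1.1.2)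

theorem c_pow_six : cEl ^ 6 = aEl := by
  have h := a_checks
  simp only [Bool.and_eq_true] at h
  exact (acts_c 6).eq acts_a h.1.1.1.2

theorem orderOf_c : orderOf cEl = 10 := by
  have h := a_checks
  simp only [Bool.and_eq_true] at h
  have hd : orderOf cEl ∣ 10 := orderOf_dvd_of_pow_eq_one ((acts_c 10).eq acts_id h.2)
  have h2 : ¬ orderOf cEl ∣ 2 := fun e =>
    (acts_c 2).ne_one h.1.1.2 (orderOf_dvd_iff_pow_eq_one.1 e)
  have h5 : ¬ orderOf cEl ∣ 5 := fun e =>
    (acts_c 5).ne_one h.1.2 (orderOf_dvd_iff_pow_eq_one.1 e)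
  have hle := Nat.le_of_dvd (by norm_num) hd
  generalize orderOf cEl = k at hd h2 h5 hle
  interval_cases k <;>
    first
    | rfl
    | exact absurd (by decide) h2
    | exact absurd (by decide) h5
    | exact absurd hd (by decide)

/-- The group of the element. -/
noncomputable def fiveA : Subgroup Co0 := Subgroup.zpowers aEl

theorem card_fiveA : Nat.card fiveA = 5 := by rw [fiveA, Nat.card_zpowers, orderOf_a]

theorem center_Co0_le : Subgroup.center Co0 ≤ Subgroup.zpowers cEl := by
  have : Finite Co0 := finite_Co0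
  have he : Subgroup.zpowers negCo0 = Subgroup.center Co0 := by
    refine Subgroup.eq_of_le_of_card_ge (Subgroup.zpowers_le.2 negCo0_center) ?_
    rw [card_center_Co0, Nat.card_zpowers]
    have : orderOf negCo0 ≠ 1 := fun e => negCo0_ne_one (orderOf_eq_one_iff.1 e)
    have := orderOf_pos negCo0
    omega
  rw [← he, Subgroup.zpowers_le]
  refine ⟨-5, ?_⟩
  show cEl ^ (-5 : ℤ) = negCo0
  have hn : negCo0 * negCo0 = 1 := by
    refine co0_ext fun j => ?_
    rw [mul_smul, negCo0_smul, negCo0_smul, neg_neg, one_smul]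
  have ha : aEl ^ 5 = 1 := by rw [← orderOf_a]; exact pow_orderOf_eq_one _
  have h5 : cEl ^ 5 = negCo0 := by
    rw [cEl, Commute.mul_pow (negCo0_mul aEl), ha, mul_one, show (5 : ℕ) = 2 + 2 + 1 from rfl,
      pow_add, pow_add, pow_one, pow_two, hn, one_mul, one_mul]
  rw [show (-5 : ℤ) = -((5 : ℕ) : ℤ) from rfl, zpow_neg, zpow_natCast, h5,
    inv_eq_of_mul_eq_one_right hn]

theorem fiveA_sup_center : fiveA ⊔ Subgroup.center Co0 = Subgroup.zpowers cEl := by
  refine le_antisymm (sup_le ?_ center_Co0_le) (Subgroup.zpowers_le.2 ?_)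
  · rw [fiveA, Subgroup.zpowers_le, ← c_pow_six]
    exact pow_mem (Subgroup.mem_zpowers _) 6
  · rw [cEl]
    exact mul_mem (Subgroup.mem_sup_right negCo0_center)
      (Subgroup.mem_sup_left (Subgroup.mem_zpowers _))

theorem centralizer_fiveA :
    Subgroup.centralizer (fiveA : Set Co0) = Subgroup.centralizer ({aEl} : Set Co0) := by
  rw [fiveA, Subgroup.zpowers_eq_closure, Subgroup.centralizer_closure]

theorem zpowers_c_central {g h : Co0} (hg : g ∈ Subgroup.centralizer ({aEl} : Set Co0))
    (hh : h ∈ Subgroup.zpowers cEl) : g * h = h * g := by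
  obtain ⟨n, rfl⟩ := hh
  have : Commute g cEl := (show Commute g negCo0 from (negCo0_mul g).symm).mul_right
    (Subgroup.mem_centralizer_singleton_iff.1 hg)
  exact (this.zpow_right n).eq

theorem zpowers_c_le : Subgroup.zpowers cEl ≤ Subgroup.centralizer ({aEl} : Set Co0) :=
  Subgroup.zpowers_le.2 (Subgroup.mem_centralizer_singleton_iff.2 (by
    rw [cEl, ← mul_assoc aEl negCo0 aEl, ← negCo0_mul aEl]))

theorem sub_normal : ((fiveA ⊔ Subgroup.center Co0).subgroupOf
    (Subgroup.centralizer (fiveA : Set Co0))).Normal := by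
  rw [fiveA_sup_center, centralizer_fiveA]
  refine ⟨fun n hn g => ?_⟩
  have e : g * n * g⁻¹ = n := by
    refine mul_inv_eq_iff_eq_mul.2 (Subtype.ext ?_)
    exact zpowers_c_central g.2 hn
  rw [e]; exact hn

/-! ### The six elements -/

theorem acts_gen_inv (i : Fin 6) : Acts (gEl i)⁻¹ (gInvI i) := by
  rw [gInvI, ← (packR_gTab i).2]
  exact (exists_gen i).choose_spec.2.acts

theorem gEl_mem (i : Fin 6) : gEl i ∈ Subgroup.centralizer (fiveA : Set Co0) := by
  rw [centralizer_fiveA, Subgroup.mem_centralizer_singleton_iff]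
  exact ((acts_gen i).mul acts_a).eq (acts_a.mul (acts_gen i))
    (List.all_eq_true.1 comm_checks i (List.mem_finRange i))

theorem acts_lett (l : ℕ) : Acts (lett gEl l) (lettI l) := by
  by_cases h : l ≤ 12
  · interval_cases l
    · exact acts_id
    · exact acts_gen 0
    · exact acts_gen_inv 0
    · exact acts_gen 1
    · exact acts_gen_inv 1
    · exact acts_gen 2
    · exact acts_gen_inv 2
    · exact acts_gen 3
    · exact acts_gen_inv 3
    · exact acts_gen 4
    · exact acts_gen_inv 4
    · exact acts_gen 5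
    · exact acts_gen_inv 5
  · simp only [lett, lettI, List.getD_eq_default, List.length_cons, List.length_nil,
      show 13 ≤ l by omega]
    exact acts_id

theorem acts_ev : ∀ w, Acts (ev (lett gEl) w) (evI w)
  | [] => acts_id
  | l :: w => by
    rw [Cfsg.Agent.J2Type.Enum.ev_cons]
    exact (acts_lett l).mul (acts_ev w)

theorem rel_mem {w : List ℕ} (hw : w ∈ relC ++ [linkW]) :
    ev (lett gEl) w ∈ Subgroup.zpowers cEl := by
  obtain ⟨k, hk, rfl⟩ := List.getElem_of_mem hw
  have h := List.all_eq_true.1 rel_checks k (List.mem_range.2 (by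
    have : (relC ++ [linkW]).length = 25 := rfl
    omega))
  rw [List.getD_eq_getElem _ _ hk] at h
  rw [(acts_ev _).eq (acts_c _) h]
  exact pow_mem (Subgroup.mem_zpowers _) _

theorem gEl_three_not_mem : gEl 3 ∉ Subgroup.zpowers cEl := by
  classical
  have : Finite Co0 := finite_Co0
  intro hm
  rw [mem_zpowers_iff_mem_range_orderOf, orderOf_c] at hm
  obtain ⟨n, hn, e⟩ := Finset.mem_image.1 hm
  rw [Finset.mem_range] at hn
  have h := List.all_eq_true.1 p_checks n (List.mem_range.2 hn)
  simp only [Bool.not_eq_true', sameI, List.all_eq_false, gI] at h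
  obtain ⟨i, -, hi⟩ := h
  refine hi (beq_iff_eq.2 ?_)
  have hs : sqNorm (crossL (ptOf i)).1 ≤ 1000000 := by
    rw [show (crossL (ptOf i)).1 = Leech.cross (ptOf i) from rfl, sqNorm_cross]; norm_num
  have h1 := acts_gen 3 _ hs
  rw [← e, acts_c n _ hs] at h1
  exact h1.symm

/-! ### The bound -/

/-- The vectors in the lattice. -/
def baseL (k : ℕ) : leechLattice :=
  if h : k < 24 then ⟨baseF k, mem_of_inLeechB (by
    have := List.all_eq_true.1 base_checks k (List.mem_range.2 h)
    simp only [Bool.and_eq_true] at this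
    exact this.1.1)⟩
  else 0

theorem baseL_coe {k : ℕ} (h : k < 24) : (baseL k).1 = baseF k := by rw [baseL, dif_pos h]

theorem baseL_norm {k : ℕ} (h : k < 24) : sqNorm (baseL k).1 = 32 := by
  have := List.all_eq_true.1 base_checks k (List.mem_range.2 h)
  simp only [Bool.and_eq_true, decide_eq_true_eq] at this
  rw [baseL_coe h]; exact this.1.2

theorem baseL_translate {k : ℕ} (h : k < 24) : aEl ^ (k % 4) • baseL (k / 4 * 4) = baseL k := by
  have hk0 : k / 4 * 4 < 24 := by omega
  have := List.all_eq_true.1 base_checks k (List.mem_range.2 h)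
  simp only [Bool.and_eq_true, beq_iff_eq] at this
  have hn : sqNorm (baseL (k / 4 * 4)).1 ≤ 1000000 := by rw [baseL_norm hk0]; norm_num
  refine Subtype.ext (encI_inj ?_ ?_ ?_)
  · rw [show sqNorm (aEl ^ (k % 4) • baseL (k / 4 * 4)).1 = sqNorm (baseL (k / 4 * 4)).1 from
      (aEl ^ (k % 4)).2.2 _]
    exact hn
  · rw [baseL_norm h]; norm_num
  · refine (exists_a.choose_spec.acts_pow (k % 4) _ hn).trans ?_
    rw [baseL_coe hk0, baseL_coe h]
    exact this.2

/-- The group fixing the first vectors. -/
noncomputable def levX : ℕ → Subgroup Co0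
  | 0 => Subgroup.centralizer ({aEl} : Set Co0)
  | n + 1 => levX n ⊓ MulAction.stabilizer Co0 (baseL (4 * n))

theorem levX_le (n : ℕ) : levX n ≤ Subgroup.centralizer ({aEl} : Set Co0) := by
  induction n with
  | zero => exact le_rfl
  | succ n ih => exact inf_le_left.trans ih

theorem levX_fix {n : ℕ} {h : Co0} (hh : h ∈ levX n) : ∀ l < n, h • baseL (4 * l) = baseL (4 * l) := by
  induction n with
  | zero => intro l hl; omega
  | succ n ih =>
    intro l hl
    rcases Nat.lt_succ_iff_lt_or_eq.1 hl with hl | rfl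
    · exact ih hh.1 l hl
    · exact hh.2

theorem levX_fix_translate {n : ℕ} {h : Co0} (hh : h ∈ levX n) {k : ℕ} (hk : k < 4 * n)
    (hk24 : k < 24) : h • baseL k = baseL k := by
  rw [← baseL_translate hk24]
  refine smul_pow_fix (Subgroup.mem_centralizer_singleton_iff.1 (levX_le n hh)) ?_ _
  rw [mul_comm]
  exact levX_fix hh _ (by omega)

/-- The packed sum of some translates. -/
def combL : List ℕ → leechLattice
  | [] => 0
  | k :: l => baseL k + (128 : ℤ) • combL l

theorem combL_coe : ∀ l : List ℕ, (∀ k ∈ l, k < 24) → (combL l).1 = combF l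
  | [], _ => rfl
  | k :: l, h => by
    rw [List.forall_mem_cons] at h
    rw [combL, combF, AddSubgroup.coe_add, AddSubgroup.coe_zsmul, baseL_coe h.1, combL_coe l h.2]

theorem combL_fix {n : ℕ} {h : Co0} (hh : h ∈ levX n) :
    ∀ l : List ℕ, (∀ k ∈ l, k < 4 * n ∧ k < 24) → h • combL l = combL l
  | [], _ => by
    have := smul_zsmul h 0 0
    simpa [combL] using this
  | k :: l, hl => by
    rw [List.forall_mem_cons] at hl
    rw [combL, co0_add, smul_zsmul, levX_fix_translate hh hl.1.1 hl.1.2, combL_fix hh l hl.2]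

theorem first_vec : (combL [0, 1, 2, 3]).1 = ofList firstVec := by
  have h := first_checks
  simp only [Bool.and_eq_true] at h
  rw [combL_coe _ (by decide)]
  exact eq_of_eqB h.1.1.1.1

/-- Every minimal vector with the inner product of the first level is a candidate. -/
theorem mem_cand {w : leechLattice} (hw : sqNorm w.1 = 32)
    (h : dotInt (combL [0, 1, 2, 3]).1 w.1 = firstDot) : w.1 ∈ candTab.map ofList := by
  classical
  have hc := first_checks
  simp only [Bool.and_eq_true, List.all_eq_true, decide_eq_true_eq, beq_iff_eq] at hc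
  obtain ⟨⟨⟨⟨-, hlen⟩, h25⟩, hnd⟩, hall⟩ := hc
  let L := minList.filter fun x => dotInt (ofList firstVec) x == firstDot
  have hsub : (candTab.map ofList).toFinset ⊆ L.toFinset := by
    intro x hx
    obtain ⟨l, hl, rfl⟩ := List.mem_map.1 (List.mem_toFinset.1 hx)
    obtain ⟨⟨h1, h2⟩, h3⟩ := hall l hl
    rw [List.mem_toFinset, List.mem_filter, beq_iff_eq, ← dotL_eq]
    exact ⟨mem_minList (mem_of_inLeechB h1) h2, h3⟩
  have hnd' : (candTab.map ofList).Nodup :=
    List.Nodup.of_map encI (by rw [List.map_map]; exact hnd)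
  have hcard : L.toFinset.card ≤ (candTab.map ofList).toFinset.card := by
    rw [List.toFinset_card_of_nodup hnd', List.length_map, Nat.eq_of_beq_eq_true h25, ← first_count,
      ← countP_minList _ (Nat.eq_of_beq_eq_true hlen), List.countP_eq_length_filter]
    exact List.toFinset_card_le L
  have hwL : w.1 ∈ L.toFinset := by
    rw [List.mem_toFinset, List.mem_filter, beq_iff_eq]
    exact ⟨mem_minList w.2 hw, by rw [← first_vec]; exact h⟩
  rw [← Finset.eq_of_subset_of_card_le hsub hcard] at hwL
  exact List.mem_toFinset.1 hwL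

theorem level_step (j : ℕ) (hj : j < 5) :
    Nat.card (levX (j + 1)) ≤ levCount.getD j 0 * Nat.card (levX (j + 2)) := by
  have h := List.all_eq_true.1 lev_checks j (List.mem_range.2 hj)
  simp only [Bool.and_eq_true, beq_iff_eq] at h
  obtain ⟨h1, h2⟩ := h
  rw [← Nat.eq_of_beq_eq_true h1]
  refine index_step_list (levX (j + 1)) (baseL (4 * (j + 1))) (levCand j) fun g hg => ?_
  have hb : 4 * (j + 1) < 24 := by omega
  have hfix : ∀ k < 4 * (j + 1), g • baseL k = baseL k := fun k hk =>
    levX_fix_translate hg hk (by omega)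
  rw [levCand, List.mem_filter]
  refine ⟨mem_cand ((g.2.2 _).trans (baseL_norm hb)) ?_, List.all_eq_true.2 fun k hk => ?_⟩
  · conv_lhs => rw [← combL_fix hg [0, 1, 2, 3] (fun k hk => by fin_cases hk <;> omega)]
    rw [co0_dotInt, combL_coe _ (by decide), baseL_coe hb, ← dotL_eq]
    exact h2
  · rw [List.mem_range] at hk
    rw [beq_iff_eq, dotL_eq, dotL_eq, ← baseL_coe (by omega : k < 24), ← baseL_coe hb]
    conv_lhs => rw [← hfix k hk]
    rw [co0_dotInt]

theorem levX_six : levX 6 = ⊥ := by
  rw [eq_bot_iff]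
  intro g hg
  rw [Subgroup.mem_bot]
  refine eq_one_of_span (B := (List.range 24).map baseL) (D := 1) (C := spanTab) one_ne_zero ?_ ?_
  · rw [List.map_map]
    refine Eq.trans ?_ span_checks
    refine congrArg (fun B => spanOK B 1 spanTab) (List.map_congr_left fun k hk => ?_)
    exact baseL_coe (List.mem_range.1 hk)
  · intro x hx
    obtain ⟨k, hk, rfl⟩ := List.mem_map.1 hx
    rw [List.mem_range] at hk
    exact levX_fix_translate hg (by omega) hk

theorem card_centralizer_le : Nat.card (Subgroup.centralizer ({aEl} : Set Co0)) ≤ 9828000 := by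
  have h0 : Nat.card (levX 0) ≤ 196560 * Nat.card (levX 1) := by
    refine index_step (levX 0) (baseL 0) (baseL_norm (by norm_num)) 0 (fun g _ => ?_)
      (List.replicate 24 0) (by simp) ?_ 0 ?_ _ countMin_zero.le
    · simpa using smul_zsmul g 0 0
    · funext p
      show (List.replicate 24 (0 : ℤ)).getD (ptIdx p) 0 = 0
      rw [List.getD_eq_getElem _ _ (by rw [List.length_replicate]; exact ptIdx_lt p),
        List.getElem_replicate]
    · simp [dotInt]
  have h1 := level_step 0 (by norm_num)
  have h2 := level_step 1 (by norm_num)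
  have h3 := level_step 2 (by norm_num)
  have h4 := level_step 3 (by norm_num)
  have h5 := level_step 4 (by norm_num)
  have h6 : Nat.card (levX 6) = 1 := by rw [levX_six]; exact Subgroup.card_bot
  show Nat.card (levX 0) ≤ _
  simp only [Nat.reduceAdd, levCount, List.getD_cons_zero, List.getD_cons_succ, one_mul] at h1 h2 h3 h4 h5
  omega

/-! ### The section -/

/-- The centraliser modulo the element and the centre. -/
abbrev Sect : Type :=
  ↥(Subgroup.centralizer (fiveA : Set Co0)) ⧸
    (fiveA ⊔ Subgroup.center Co0).subgroupOf (Subgroup.centralizer (fiveA : Set Co0))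

attribute [local instance] sub_normal

theorem card_sect_le : Nat.card Sect ≤ 982800 := by
  have h := Subgroup.card_eq_card_quotient_mul_card_subgroup
    ((fiveA ⊔ Subgroup.center Co0).subgroupOf (Subgroup.centralizer (fiveA : Set Co0)))
  have hle : fiveA ⊔ Subgroup.center Co0 ≤ Subgroup.centralizer (fiveA : Set Co0) := by
    rw [fiveA_sup_center, centralizer_fiveA]; exact zpowers_c_le
  rw [Nat.card_congr (Subgroup.subgroupOfEquivOfLe hle).toEquiv] at h
  rw [fiveA_sup_center, Nat.card_zpowers, orderOf_c] at h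
  have hb := card_centralizer_le
  rw [← centralizer_fiveA, h] at hb
  show Nat.card (_ ⧸ _) ≤ _
  rw [fiveA_sup_center]
  omega

/-- The six images. -/
noncomputable def sEl (i : Fin 6) : Sect := QuotientGroup.mk ⟨gEl i, gEl_mem i⟩

theorem rels_sEl : Rels sEl := by
  have key : ∀ w ∈ relC ++ [linkW], ev (lett sEl) w = 1 := fun w hw => by
    have e : QuotientGroup.mk' _ (ev (lett fun i => (⟨gEl i, gEl_mem i⟩ : ↥(Subgroup.centralizer
        (fiveA : Set Co0)))) w) = ev (lett sEl) w :=
      Cfsg.Agent.J2Type.Enum.map_ev_lett _ _ w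
    rw [← e, QuotientGroup.mk'_apply, QuotientGroup.eq_one_iff, Subgroup.mem_subgroupOf]
    have e2 := Cfsg.Agent.J2Type.Enum.map_ev_lett (Subgroup.centralizer (fiveA : Set Co0)).subtype
      (fun i => ⟨gEl i, gEl_mem i⟩) w
    rw [Subgroup.coe_subtype] at e2
    rw [e2, fiveA_sup_center]
    exact rel_mem hw
  exact ⟨fun w hw => key w (List.mem_append_left _ hw), key _ (List.mem_append_right _ List.mem_cons_self)⟩

theorem sEl_three_ne : sEl 3 ≠ 1 := by
  intro h
  rw [sEl, QuotientGroup.eq_one_iff, Subgroup.mem_subgroupOf, fiveA_sup_center] at h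
  exact gEl_three_not_mem h

open Cfsg.Agent.J2Type.Enum in
/-- Six elements satisfying the relators in a group of order less than twice 604800 make it of
that order. -/
theorem card_of_rels {G : Type*} [Group G] [Finite G] {e : Fin 6 → G} (h : Rels e) (he : e 3 ≠ 1)
    (hlt : Nat.card G < 2 * 604800) : Nat.card G = 604800 := by
  let q : Fin 6 → G × ↥Cfsg.Agent.Janko2.K := fun j => (e j, em j)
  have hqc : ∀ w, ev (lett e) w = 1 → ev (lett em) w = 1 → ev (lett q) w = 1 := fun w h1 h2 =>
    Prod.ext ((map_ev_lett (MonoidHom.fst _ _) q w).trans h1)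
      ((map_ev_lett (MonoidHom.snd _ _) q w).trans h2)
  have hq : Rels q :=
    ⟨fun w hw => hqc w (h.1 w hw) (rels_em.1 w hw), hqc _ h.2 rels_em.2⟩
  obtain ⟨hfin, hle⟩ := bound_rels hq
  set P := Subgroup.closure (lett q '' {l | l ∈ stepC.letters})
  let ψ : P →* ↥Cfsg.Agent.Janko2.K := (MonoidHom.snd G _).comp P.subtype
  let χ : P →* G := (MonoidHom.fst G _).comp P.subtype
  have hsurj : Function.Surjective ψ := by
    have himg : P.map (MonoidHom.snd G ↥Cfsg.Agent.Janko2.K) = ⊤ := by
      rw [MonoidHom.map_closure, Set.image_image]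
      simp only [map_lett]
      exact closure_em
    intro y
    obtain ⟨x, hx, rfl⟩ :=
      (himg ▸ Subgroup.mem_top y : y ∈ P.map (MonoidHom.snd G ↥Cfsg.Agent.Janko2.K))
    exact ⟨⟨x, hx⟩, rfl⟩
  have hK := Cfsg.Agent.Janko2.card_K
  have hle' := Nat.card_le_card_of_surjective _ hsurj
  have hbij : Function.Bijective ψ :=
    (Nat.bijective_iff_surjective_and_card ψ).2 ⟨hsurj, le_antisymm (hle.trans hK.ge) hle'⟩
  have hsimp : IsSimpleGroup P :=
    (MulEquiv.isSimpleGroup_congr (MulEquiv.ofBijective ψ hbij)).2 Cfsg.Agent.Janko2.simple_K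
  have hker : χ.ker = ⊥ := by
    refine ((χ.normal_ker).eq_bot_or_eq_top).resolve_right fun htop => he ?_
    have hm : (⟨lett q 7, Subgroup.subset_closure ⟨7, by decide, rfl⟩⟩ : P) ∈ χ.ker :=
      htop ▸ Subgroup.mem_top _
    exact hm
  have hP : Nat.card P = 604800 := by
    rw [← hK]; exact Nat.card_congr (Equiv.ofBijective ψ hbij)
  have hd : Nat.card P ∣ Nat.card G := Subgroup.card_dvd_of_injective χ ((MonoidHom.ker_eq_bot_iff χ).1 hker)
  rw [hP] at hd
  obtain ⟨t, ht⟩ := hd
  have hpos : 0 < Nat.card G := Nat.card_pos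
  rw [ht] at hlt hpos
  have : t < 2 := by omega
  have : 0 < t := by
    rcases Nat.eq_zero_or_pos t with rfl | h'
    · simp at hpos
    · exact h'
  rw [ht, show t = 1 by omega]

/-- **The section is the Hall–Janko group.** -/
theorem nonempty_sect_iso : Nonempty (Sect ≃* ↥Cfsg.Agent.Janko2.K) := by
  have : Finite Co0 := finite_Co0
  have : Finite Sect := Quotient.finite _
  refine Cfsg.Agent.J2Type.Enum.nonempty_iso_K rels_sEl sEl_three_ne
    (card_of_rels rels_sEl sEl_three_ne ?_)
  have := card_sect_le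
  omega

end Cfsg.Agent.Co0Sections.Five
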