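import Cfsg.Agent.Leech.AutOps
import Cfsg.Agent.Leech.CountMin

/-!
Automorphisms of the Leech lattice given by the images of the coordinate frame.
-/

set_option autoImplicit false

namespace Cfsg.Agent.Co0Sections

open Cfsg Cfsg.Agent.Golay Cfsg.Agent.Leech

/-- The entry of a table: the coordinate `q` of the image of `8 e_p`. -/
def ent (R : List (List ℤ)) (p q : GolayPt) : ℤ := (R.getD (ptIdx p) []).getD (ptIdx q) 0

/-- The transposed entry. -/
def entT (R : List (List ℤ)) (p q : GolayPt) : ℤ := ent R q p

/-- The numerator of the image. -/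
def numE (M : GolayPt → GolayPt → ℤ) (x : GolayPt → ℤ) (q : GolayPt) : ℤ := ∑ p, x p * M p q

/-- The image. -/
def appE (M : GolayPt → GolayPt → ℤ) (x : GolayPt → ℤ) : GolayPt → ℤ := fun q => numE M x q / 8

/-- The numerator along positions. -/
def numL (M : GolayPt → GolayPt → ℤ) (x : GolayPt → ℤ) (q : GolayPt) : ℤ :=
  ((List.range 24).map fun i => x (ptOf i) * M (ptOf i) q).sum

theorem numL_eq (M : GolayPt → GolayPt → ℤ) (x : GolayPt → ℤ) : numL M x = numE M x :=
  funext fun q => (sum_ptOf fun p => x p * M p q).symm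

/-- The generators go into the lattice. -/
def genOK (M : GolayPt → GolayPt → ℤ) : Bool :=
  genVecs.all fun g => inLeechB g && ((List.range 24).all fun j => numL M g (ptOf j) % 8 == 0) &&
    inLeechB fun q => numL M g q / 8

/-- The rows are orthogonal. -/
def orthOK (M : GolayPt → GolayPt → ℤ) : Bool :=
  (List.range 24).all fun i => (List.range 24).all fun k =>
    ((List.range 24).map fun j => M (ptOf i) (ptOf j) * M (ptOf k) (ptOf j)).sum ==
      bif Nat.beq i k then 64 else 0

theorem orth_of_ok {M : GolayPt → GolayPt → ℤ} (h : orthOK M = true) (p p' : GolayPt) :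
    ∑ q, M p q * M p' q = if p = p' then 64 else 0 := by
  simp only [orthOK, List.all_eq_true, List.mem_range, beq_iff_eq] at h
  have := h (ptIdx p) (ptIdx_lt p) (ptIdx p') (ptIdx_lt p')
  rw [ptOf_ptIdx, ptOf_ptIdx] at this
  rw [sum_ptOf fun q => M p q * M p' q, this]
  by_cases hp : p = p'
  · subst hp
    rw [Nat.beq_refl]; simp
  · have : Nat.beq (ptIdx p) (ptIdx p') = false := by
      rw [Bool.eq_false_iff]
      exact fun e => hp (ptIdx_injective (Nat.eq_of_beq_eq_true e))
    rw [this]; simp [hp]

theorem map_mem {M : GolayPt → GolayPt → ℤ} (h : genOK M = true) {x : GolayPt → ℤ}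
    (hx : x ∈ leechLattice) : (∀ q, (8 : ℤ) ∣ numE M x q) ∧ appE M x ∈ leechLattice := by
  let K : AddSubgroup (GolayPt → ℤ) :=
    { carrier := {y | (∀ q, (8 : ℤ) ∣ numE M y q) ∧ appE M y ∈ leechLattice}
      zero_mem' := ⟨fun q => by simp [numE], by
        have : appE M 0 = 0 := funext fun q => by simp [appE, numE]
        rw [this]; exact zero_mem _⟩
      add_mem' := fun {a b} ha hb => by
        have e : ∀ q, numE M (a + b) q = numE M a q + numE M b q := fun q => by
          simp [numE, add_mul, Finset.sum_add_distrib]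
        refine ⟨fun q => by rw [e]; exact dvd_add (ha.1 q) (hb.1 q), ?_⟩
        have : appE M (a + b) = appE M a + appE M b := funext fun q => by
          show numE M (a + b) q / 8 = _
          rw [e, Int.add_ediv_of_dvd_left (ha.1 q)]
          rfl
        rw [this]; exact add_mem ha.2 hb.2
      neg_mem' := fun {a} ha => by
        have e : ∀ q, numE M (-a) q = -numE M a q := fun q => by
          simp [numE, Finset.sum_neg_distrib]
        refine ⟨fun q => by rw [e]; exact dvd_neg.mpr (ha.1 q), ?_⟩
        have : appE M (-a) = -appE M a := funext fun q => by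
          show numE M (-a) q / 8 = _
          rw [e, Int.neg_ediv_of_dvd (ha.1 q)]
          rfl
        rw [this]; exact neg_mem ha.2 }
  refine (leechLattice_le_of_gens (K := K) (fun g hg => ?_) hx : x ∈ K)
  simp only [genOK, List.all_eq_true, Bool.and_eq_true, List.mem_range, beq_iff_eq] at h
  obtain ⟨⟨-, h8⟩, hin⟩ := h g hg
  refine ⟨fun q => ?_, ?_⟩
  · have := h8 (ptIdx q) (ptIdx_lt q)
    rw [ptOf_ptIdx, numL_eq] at this
    exact Int.dvd_of_emod_eq_zero this
  · rw [show appE M g = fun q => numL M g q / 8 from by rw [numL_eq]; rfl]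
    exact mem_of_inLeechB hin

theorem num_app {M M' : GolayPt → GolayPt → ℤ} {x : GolayPt → ℤ}
    (hd : ∀ q, (8 : ℤ) ∣ numE M x q) (hM' : ∀ p q, M' p q = M q p)
    (ho : ∀ p p', ∑ q, M p q * M p' q = if p = p' then 64 else 0) :
    appE M' (appE M x) = x := by
  funext r
  have e : 8 * numE M' (appE M x) r = 8 * (8 * x r) := by
    rw [numE, Finset.mul_sum]
    calc ∑ q, 8 * (appE M x q * M' q r) = ∑ q, numE M x q * M r q := by
          refine Finset.sum_congr rfl fun q _ => ?_
          rw [hM', ← mul_assoc, appE, Int.mul_ediv_cancel' (hd q)]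
      _ = ∑ p, x p * ∑ q, M p q * M r q := by
          simp only [numE, Finset.sum_mul, Finset.mul_sum]
          rw [Finset.sum_comm]
          simp only [mul_assoc]
      _ = _ := by
          simp only [ho, mul_ite, mul_zero, Finset.sum_ite_eq', Finset.mem_univ, if_true]
          ring
  show numE M' (appE M x) r / 8 = x r
  rw [mul_left_cancel₀ (by norm_num : (8 : ℤ) ≠ 0) e, Int.mul_ediv_cancel_left _ (by norm_num)]

theorem sq_app {M : GolayPt → GolayPt → ℤ} {x : GolayPt → ℤ} (hd : ∀ q, (8 : ℤ) ∣ numE M x q)
    (ho : ∀ p p', ∑ q, M p q * M p' q = if p = p' then 64 else 0) :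
    sqNorm (appE M x) = sqNorm x := by
  refine mul_left_cancel₀ (by norm_num : (64 : ℤ) ≠ 0) ?_
  simp only [sqNorm, Finset.mul_sum]
  calc ∑ q, 64 * appE M x q ^ 2 = ∑ q, numE M x q * numE M x q := by
        refine Finset.sum_congr rfl fun q _ => ?_
        have := Int.mul_ediv_cancel' (hd q)
        rw [show (64 : ℤ) * appE M x q ^ 2 = (8 * appE M x q) * (8 * appE M x q) by ring,
          appE, this]
    _ = ∑ p, x p * ∑ p', x p' * ∑ q, M p q * M p' q := by
        simp only [numE, Finset.sum_mul, Finset.mul_sum]
        rw [Finset.sum_comm]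
        refine Finset.sum_congr rfl fun p _ => ?_
        rw [Finset.sum_comm]
        refine Finset.sum_congr rfl fun p' _ => Finset.sum_congr rfl fun q _ => by ring
    _ = _ := by
        simp only [ho, mul_ite, mul_zero, Finset.sum_ite_eq, Finset.mem_univ, if_true]
        exact Finset.sum_congr rfl fun p _ => by ring

/-- The checks on a table of images. -/
def okR (R : List (List ℤ)) : Bool :=
  genOK (ent R) && genOK (entT R) && orthOK (ent R) && orthOK (entT R)

/-- The packed rows of a table. -/
def packR (R : List (List ℤ)) : List ℤ :=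
  R.map fun r => ((List.range 24).map fun j => r.getD j 0 * 65536 ^ j).sum

theorem isAut_of_ok {R : List (List ℤ)} (h : okR R = true) : IsAut (appE (ent R)) (appE (entT R)) := by
  simp only [okR, Bool.and_eq_true] at h
  obtain ⟨⟨⟨h1, h2⟩, h3⟩, h4⟩ := h
  exact
    { mem := fun x hx => (map_mem h1 hx).2
      inv_mem := fun x hx => (map_mem h2 hx).2
      left := fun x hx => num_app (map_mem h1 hx).1 (fun _ _ => rfl) (orth_of_ok h3)
      right := fun x hx => num_app (map_mem h2 hx).1 (fun _ _ => rfl) (orth_of_ok h4)
      add := fun x hx y hy => funext fun q => by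
        show numE (ent R) (x + y) q / 8 = numE (ent R) x q / 8 + numE (ent R) y q / 8
        rw [← Int.add_ediv_of_dvd_left ((map_mem h1 hx).1 q)]
        congr 1
        simp [numE, add_mul, Finset.sum_add_distrib]
      norm := fun x hx => sq_app (map_mem h1 hx).1 (orth_of_ok h3) }

theorem appE_cross (M : GolayPt → GolayPt → ℤ) (p q : GolayPt) :
    appE M (crossL p).1 q = M p q := by
  show numE M ((crossL p).1) q / 8 = _
  rw [numE, Finset.sum_eq_single p (fun p' _ hp => by simp [crossL, Leech.cross, hp]) (by simp)]
  simp [crossL, Leech.cross]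

/-- The transposed table. -/
def trTab (R : List (List ℤ)) : List (List ℤ) :=
  List.map (fun i => R.map fun r => r.getD i 0) (List.range 24)

theorem hasMat_of_appE {g : Co0} {R : List (List ℤ)} (hlen : R.length = 24)
    (hg : ∀ x : leechLattice, (g • x).1 = appE (ent R) x.1) : HasMat g (packR R) := by
  refine ⟨by simp [packR, hlen], fun i hi => ?_⟩
  rw [hg, packR, List.getD_eq_getElem _ _ (by simpa [hlen] using hi), List.getElem_map, encI]
  refine congrArg List.sum (List.map_congr_left fun j hj => ?_)
  rw [List.mem_range] at hj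
  rw [appE_cross, ent, ptIdx_ptOf i hi, ptIdx_ptOf j hj,
    List.getD_eq_getElem _ _ (by omega : i < R.length)]

theorem ent_trTab {R : List (List ℤ)} (hlen : R.length = 24) : ent (trTab R) = entT R := by
  funext p q
  have hq : ptIdx q < R.length := by rw [hlen]; exact ptIdx_lt q
  simp [ent, entT, trTab, List.getD_eq_getElem?_getD, ptIdx_lt p, List.getElem?_eq_getElem hq]

/-- A checked table of images is the table of an element of `Co0`; the transposed table is that
of its inverse. -/
theorem exists_hasMat {R : List (List ℤ)} (hlen : R.length = 24) (h : okR R = true) :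
    ∃ g : Co0, HasMat g (packR R) ∧ HasMat g⁻¹ (packR (trTab R)) := by
  have hA := isAut_of_ok h
  refine ⟨toCo0 hA, hasMat_of_appE hlen fun x => rfl, hasMat_of_appE (by simp [trTab]) fun x => ?_⟩
  rw [ent_trTab hlen]
  rfl

end Cfsg.Agent.Co0Sections
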