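import Cfsg.Agent.J2Type.Model
import Cfsg.Agent.J2Type.Wrap
import Cfsg.Agent.Components.FStar

/-!
The model of the Hall–Janko group satisfies the statement form of the large extraspecial hypothesis.
-/

set_option autoImplicit false

namespace Cfsg.Agent.Co0Sections

open Cfsg Cfsg.Agent.LargeExtra Cfsg.Agent.Janko2
open Cfsg.Agent.J2Type (modelQ hyp_model mem_modelQ mem_centralizer_model)

theorem exists_omega_equiv :
    Nonempty (↥(Cfsg.Omega (ZMod 2) (Cfsg.quadFormMinus 1 (ZMod 2) 1 1)) ≃* ↥(alternatingGroup (Fin 5))) := by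
  have : Fact (Nat.Prime 2) := ⟨Nat.prime_two⟩
  obtain ⟨e⟩ := S0824.result (F := ZMod 2) (by simp)
  exact ⟨((commutator _).equivMapOfInjective e.toMonoidHom e.injective).trans (MulEquiv.subgroupCongr (by
      rw [Classical.map_commutator_top_of_equiv, alternatingGroup.commutator_perm_eq (by simp)]))⟩

/-- The Hall–Janko group has the stated centraliser of an involution. -/
theorem model_hypothesis : IsSimpleGroup ↥K ∧ ¬ IsMulCommutative ↥K ∧ ∃ z : ↥K, orderOf z = 2 ∧
    ∃ (Q : Subgroup (Subgroup.centralizer ({z} : Set ↥K))) (_ : Q.Normal),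
      Cfsg.generalizedFittingSubgroup (Subgroup.centralizer ({z} : Set ↥K)) = Q ∧
      Cfsg.IsExtraspecial 2 Q ∧ Nat.card Q = 2 ^ 5 ∧
      Nonempty ((Subgroup.centralizer ({z} : Set ↥K)) ⧸ Q ≃*
        Cfsg.Omega (ZMod 2) (Cfsg.quadFormMinus 1 (ZMod 2) 1 1)) ∧
      ∃ g : ↥K, (∃ hq : g * z * g⁻¹ ∈ Subgroup.centralizer ({z} : Set ↥K),
        (⟨g * z * g⁻¹, hq⟩ : Subgroup.centralizer ({z} : Set ↥K)) ∈ Q) ∧ g * z * g⁻¹ ≠ z := by
  have : Fact (Nat.Prime 2) := ⟨Nat.prime_two⟩
  have h := hyp_model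
  set z : ↥K := ⟨tp 0, tp_mem 0⟩ with hz
  set C := Subgroup.centralizer ({z} : Set ↥K) with hC
  obtain ⟨g, hgQ, hne⟩ := h.nwc
  refine ⟨simple_K, fun hcomm => hne ?_, z, ?_, ?_⟩
  · have := hcomm.is_comm.comm g z
    rw [this, mul_inv_cancel_right]
  · exact orderOf_eq_prime (by rw [pow_two]; exact h.ci.sq) h.ci.ne_one
  have hle : modelQ ≤ C := fun q hq => Subgroup.mem_centralizer_singleton_iff.2 (h.ci.comm q hq)
  let e : ↥C ≃* ↥(levelGrp 1) :=
    { toFun := fun c => ⟨(c : ↥K).1, mem_centralizer_model.1 c.2⟩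
      invFun := fun x => ⟨⟨x.1, levelGrp_le 1 x.2⟩, mem_centralizer_model.2 x.2⟩
      left_inv := fun c => rfl
      right_inv := fun x => rfl
      map_mul' := fun a b => rfl }
  let f : ↥C →* Equiv.Perm (Fin 5) := five.comp e.toMonoidHom
  have hker : f.ker = modelQ.subgroupOf C := by
    ext c
    rw [Subgroup.mem_subgroupOf, mem_modelQ]
    exact ⟨fun hc => ⟨mem_centralizer_model.1 c.2, hc⟩, fun ⟨_, hc⟩ => hc⟩
  have hrange : f.range = alternatingGroup (Fin 5) := by
    rw [← five_range, MonoidHom.range_comp, MonoidHom.range_eq_map five]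
    congr 1
    exact MonoidHom.range_eq_top.2 e.surjective
  set Q := modelQ.subgroupOf C with hQdef
  have hQn : Q.Normal := hker ▸ f.normal_ker
  obtain ⟨eΩ⟩ := exists_omega_equiv
  let eq : ↥C ⧸ Q ≃* ↥(alternatingGroup (Fin 5)) :=
    (QuotientGroup.quotientMulEquivOfEq hker.symm).trans
      ((QuotientGroup.quotientKerEquivRange f).trans (MulEquiv.subgroupCongr hrange))
  have hcard : Nat.card Q = 2 ^ 5 := by
    rw [Nat.card_congr (Subgroup.subgroupOfEquivOfLe hle).toEquiv, h.cardQ]; norm_num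
  have hp : IsPGroup 2 ↥Q := IsPGroup.of_card hcard
  refine ⟨Q, hQn, ?_, isExtraspecial_map_equiv h.ci.extra (Subgroup.subgroupOfEquivOfLe hle).symm, hcard,
    ⟨eq.trans eΩ.symm⟩, g, ⟨hle hgQ, Subgroup.mem_subgroupOf.2 hgQ⟩, hne⟩
  have hle' : Q ≤ pCore 2 ↥C := Components.subnormal_le_pCore hQn.isSubnormal hp
  have hge : pCore 2 ↥C ≤ Q := by
    have : IsSimpleGroup ↥(alternatingGroup (Fin 5)) := alternatingGroup.isSimpleGroup (by simp)
    let φ : ↥C →* ↥(alternatingGroup (Fin 5)) := eq.toMonoidHom.comp (QuotientGroup.mk' Q)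
    have hφ : Function.Surjective φ := eq.surjective.comp (QuotientGroup.mk'_surjective Q)
    have hn : ((pCore 2 ↥C).map φ).Normal := Subgroup.Normal.map inferInstance φ hφ
    rcases hn.eq_bot_or_eq_top with hb | ht
    · intro c hc
      have := (Subgroup.eq_bot_iff_forall _).1 hb _ ⟨c, hc, rfl⟩
      have h1 : QuotientGroup.mk' Q c = 1 := eq.injective (this.trans (map_one eq).symm)
      exact (QuotientGroup.eq_one_iff c).1 h1
    · exfalso
      have hpc : IsPGroup 2 ↥((pCore 2 ↥C).map φ) := Cores.pCore_isPGroup.map φ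
      rw [ht] at hpc
      obtain ⟨n, hn⟩ := IsPGroup.iff_card.1 hpc
      rw [Subgroup.card_top, nat_card_alternatingGroup, Nat.card_fin] at hn
      have h60 : (5 : ℕ) ∣ 2 ^ n := hn ▸ by decide
      exact absurd (Nat.prime_five.dvd_of_dvd_pow h60) (by decide)
  have he : pCore 2 ↥C = Q := le_antisymm hge hle'
  rw [Components.genFitting_eq_pCore_of_centralizer_le (p := 2) ?_, he]
  rw [he]
  intro c hc
  rw [Subgroup.mem_subgroupOf]
  have : (c : ↥K) ∈ Subgroup.zpowers z := h.cent fun q hq =>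
    congrArg Subtype.val (hc ⟨q, hle hq⟩ hq)
  exact Subgroup.zpowers_le.2 h.ci.mem this

end Cfsg.Agent.Co0Sections
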