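import Cfsg.Agent.Co0Sections.Bound

/-!
Vectors with small coordinates packed into one number, and inner products evaluated on them.
-/

set_option autoImplicit false

namespace Cfsg.Agent.Co0Sections

open Cfsg Cfsg.Agent.Golay Cfsg.Agent.Leech

/-- The vector with coordinates the base 16 digits less 8. -/
def vecN (n : ℕ) : GolayPt → ℤ := fun p => ((n / 16 ^ ptIdx p % 16 : ℕ) : ℤ) - 8

/-- The inner product of a list of coordinates with a packed vector. -/
def dotN : List ℤ → ℕ → ℤ
  | [], _ => 0
  | a :: l, n => Int.add (Int.mul a (Int.sub (Int.ofNat (Nat.mod n 16)) 8)) (dotN l (Nat.div n 16))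

theorem dotN_eq_sum : ∀ (l : List ℤ) (n : ℕ), dotN l n =
    ((List.range l.length).map fun i => l.getD i 0 * (((n / 16 ^ i % 16 : ℕ) : ℤ) - 8)).sum
  | [], _ => rfl
  | a :: l, n => by
    rw [dotN, dotN_eq_sum l, List.length_cons, List.range_succ_eq_map, List.map_cons, List.map_map,
      List.sum_cons]
    show a * ((Int.ofNat (n % 16)) - 8) + _ = _
    simp only [List.getD_cons_zero, pow_zero, Nat.div_one]
    congr 1
    refine congrArg List.sum (List.map_congr_left fun i _ => ?_)
    simp only [Function.comp, List.getD_cons_succ, pow_succ']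
    rw [show n.div 16 = n / 16 from rfl, Nat.div_div_eq_div_mul]

theorem dotN_eq {l : List ℤ} (hl : l.length = 24) (n : ℕ) :
    dotN l n = dotInt (ofList l) (vecN n) := by
  rw [dotN_eq_sum, hl, dotInt, sum_ptOf]
  refine congrArg List.sum (List.map_congr_left fun i hi => ?_)
  rw [ofList, vecN, ptIdx_ptOf i (List.mem_range.1 hi)]

/-- The list increases strictly. -/
def incB : List ℕ → Bool
  | [] => true
  | [_] => true
  | a :: b :: l => Nat.blt a b && incB (b :: l)

theorem lt_of_incB : ∀ {l : List ℕ} {a : ℕ}, incB (a :: l) = true → ∀ x ∈ l, a < x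
  | [], _, _, x, hx => by simp at hx
  | b :: l, a, h, x, hx => by
    simp only [incB, Bool.and_eq_true, Nat.blt_eq] at h
    rcases List.mem_cons.1 hx with rfl | hx
    · exact h.1
    · exact h.1.trans (lt_of_incB h.2 x hx)

theorem nodup_of_incB : ∀ {l : List ℕ}, incB l = true → l.Nodup
  | [], _ => List.nodup_nil
  | [a], _ => List.nodup_singleton a
  | a :: b :: l, h => by
    have h' := h
    simp only [incB, Bool.and_eq_true] at h'
    exact List.nodup_cons.2 ⟨fun ha => lt_irrefl _ (lt_of_incB h a ha), nodup_of_incB h'.2⟩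

/-- The packed number of a list of coordinates. -/
def codeN : List ℤ → ℕ
  | [] => 0
  | a :: l => (a + 8).toNat + 16 * codeN l

theorem vecN_inj {m n : ℕ} (hm : m < 16 ^ 24) (hn : n < 16 ^ 24) (h : vecN m = vecN n) : m = n := by
  have hd : ∀ i < 24, m / 16 ^ i % 16 = n / 16 ^ i % 16 := fun i hi => by
    have := congrFun h (ptOf i)
    simp only [vecN, ptIdx_ptOf i hi] at this
    omega
  have key : ∀ k ≤ 24, m % 16 ^ k = n % 16 ^ k := by
    intro k hk
    induction k with
    | zero => simp [Nat.mod_one]
    | succ k ih => rw [pow_succ, Nat.mod_mul, Nat.mod_mul, ih (by omega), hd k (by omega)]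
  have := key 24 le_rfl
  rwa [Nat.mod_eq_of_lt hm, Nat.mod_eq_of_lt hn] at this

end Cfsg.Agent.Co0Sections
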