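import Cfsg.Agent.Co0Sections.CountSplit
import Cfsg.Agent.Co0Sections.ThreeData

/-!
Exactly 32 minimal vectors have the prescribed inner product at this level.
-/

set_option autoImplicit false
-- one evaluation at a time, to bound the memory
set_option Elab.async false

namespace Cfsg.Agent.Co0Sections.Three

open Cfsg.Agent.Leech

theorem out_pairs : pairPart outVec outDot = 0 := by decide +kernel

theorem out_oct_0 : octPart outVec outDot (wordSlice 0) = 2 := by
  decide +kernel

theorem out_oct_1 : octPart outVec outDot (wordSlice 1) = 4 := by
  decide +kernel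

theorem out_oct_2 : octPart outVec outDot (wordSlice 2) = 4 := by
  decide +kernel

theorem out_oct_3 : octPart outVec outDot (wordSlice 3) = 2 := by
  decide +kernel

theorem out_oct_4 : octPart outVec outDot (wordSlice 4) = 2 := by
  decide +kernel

theorem out_oct_5 : octPart outVec outDot (wordSlice 5) = 0 := by
  decide +kernel

theorem out_oct_6 : octPart outVec outDot (wordSlice 6) = 0 := by
  decide +kernel

theorem out_oct_7 : octPart outVec outDot (wordSlice 7) = 2 := by
  decide +kernel

theorem out_odd_0 : oddPart outVec outDot (wordSlice 0) = 0 := by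
  decide +kernel

theorem out_odd_1 : oddPart outVec outDot (wordSlice 1) = 8 := by
  decide +kernel

theorem out_odd_2 : oddPart outVec outDot (wordSlice 2) = 0 := by
  decide +kernel

theorem out_odd_3 : oddPart outVec outDot (wordSlice 3) = 0 := by
  decide +kernel

theorem out_odd_4 : oddPart outVec outDot (wordSlice 4) = 0 := by
  decide +kernel

theorem out_odd_5 : oddPart outVec outDot (wordSlice 5) = 8 := by
  decide +kernel

theorem out_odd_6 : oddPart outVec outDot (wordSlice 6) = 0 := by
  decide +kernel

theorem out_odd_7 : oddPart outVec outDot (wordSlice 7) = 0 := by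
  decide +kernel

theorem out_count : countMin outVec outDot = 32 := by
  simp only [countMin_slices, show List.range 8 = [0, 1, 2, 3, 4, 5, 6, 7] from rfl, List.map_cons,
    List.map_nil, List.sum_cons, List.sum_nil, Nat.reduceAdd, out_pairs,
    out_oct_0,
    out_oct_1,
    out_oct_2,
    out_oct_3,
    out_oct_4,
    out_oct_5,
    out_oct_6,
    out_oct_7,
    out_odd_0,
    out_odd_1,
    out_odd_2,
    out_odd_3,
    out_odd_4,
    out_odd_5,
    out_odd_6,
    out_odd_7]

end Cfsg.Agent.Co0Sections.Three
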