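import Cfsg.Agent.Co0Sections.ThreeChecks
import Cfsg.Agent.Co0Sections.ThreeCountFirst
import Cfsg.Agent.Co0Sections.ThreeCountOut
import Cfsg.Agent.SuzCover.Stem
import Mathlib.GroupTheory.QuotientGroup.Basic

/-!
The centraliser of the fixed-point-free element of order 3 of `Co0` is the six-fold cover of the
Suzuki group, and modulo that element and the centre it is the Suzuki group.
-/

set_option autoImplicit false

namespace Cfsg.Agent.Co0Sections.Three

open Cfsg Cfsg.Agent.Golay Cfsg.Agent.Leech
open Cfsg.Agent.SuzCover (Om cover zel proj)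

/-! ### The element -/

theorem exists_om : ∃ g : Co0, HasMat g omPack ∧
    ∀ x : leechLattice, (g • x).1 = appE (ent omTab) x.1 := by
  have h := om_ok
  simp only [Bool.and_eq_true, beq_iff_eq] at h
  obtain ⟨⟨⟨⟨h1, h2⟩, h3⟩, -⟩, -⟩ := h
  refine ⟨toCo0 (isAut_of_ok h1), ?_, fun x => rfl⟩
  rw [← h3]
  exact hasMat_of_appE (Nat.eq_of_beq_eq_true h2) fun x => rfl

theorem Om_eq : exists_om.choose = Om := by
  have h := om_ok
  simp only [Bool.and_eq_true, beq_iff_eq] at h
  obtain ⟨⟨-, h4⟩, h5⟩ := h
  obtain ⟨hg, hsmul⟩ := exists_om.choose_spec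
  set g := exists_om.choose
  have h3 : g ^ 3 = 1 := (hg.acts_pow 3).eq (fun x _ => by rw [one_smul]; rfl) h4
  have hcode : matEnc g = matEnc Om := by
    rw [SuzCover.matEnc_Om, ← Nat.eq_of_beq_eq_true om_code, matEnc, colsOf, dualL, List.map_pmap]
    refine congrArg packCols (List.ext_getElem (by simp) fun i _ _ => ?_)
    simp only [List.getElem_pmap, List.getElem_map]
    refine congrArg keyOf ((hsmul _).trans ?_)
    funext q
    show numE (ent omTab) _ q / 8 = numL (ent omTab) _ q / 8
    rw [numL_eq]
  rcases eq_or_neg_of_matEnc hcode with e | e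
  · exact e
  · exfalso
    rw [e, (show Commute Om negCo0 from SuzCover.negCo0_comm Om).mul_pow, SuzCover.Om_cube, one_mul,
      pow_succ, pow_two, SuzCover.negCo0_sq, one_mul] at h3
    exact negCo0_ne_one h3

theorem hasMat_om : HasMat Om omPack := by
  rw [← Om_eq]; exact exists_om.choose_spec.1

/-- The group of the element. -/
noncomputable def threeA : Subgroup Co0 := Subgroup.zpowers Om

theorem card_threeA : Nat.card threeA = 3 := by
  have : Fact (Nat.Prime 3) := ⟨Nat.prime_three⟩
  rw [threeA, Nat.card_zpowers, orderOf_eq_prime SuzCover.Om_cube SuzCover.Om_ne_one]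

/-! ### The vectors -/

/-- The vectors in the lattice. -/
def baseL (k : ℕ) : leechLattice :=
  if h : k < 24 then ⟨baseF k, mem_of_inLeechB (by
    have := List.all_eq_true.1 base_checks k (List.mem_range.2 h)
    simp only [Bool.and_eq_true] at this
    exact this.1.1.1)⟩
  else 0

theorem baseL_coe {k : ℕ} (h : k < 24) : (baseL k).1 = baseF k := by rw [baseL, dif_pos h]

theorem baseL_norm {k : ℕ} (h : k < 24) : sqNorm (baseL k).1 = 32 := by
  have := List.all_eq_true.1 base_checks k (List.mem_range.2 h)
  simp only [Bool.and_eq_true, decide_eq_true_eq] at this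
  rw [baseL_coe h]; exact this.1.1.2

theorem baseTab_len {k : ℕ} (h : k < 24) : (baseTab.getD k []).length = 24 := by
  have := List.all_eq_true.1 base_checks k (List.mem_range.2 h)
  simp only [Bool.and_eq_true] at this
  exact Nat.eq_of_beq_eq_true this.1.2

theorem baseL_translate {k : ℕ} (h : k < 24) : Om ^ (k % 2) • baseL (k / 2 * 2) = baseL k := by
  have hk0 : k / 2 * 2 < 24 := by omega
  have := List.all_eq_true.1 base_checks k (List.mem_range.2 h)
  simp only [Bool.and_eq_true, beq_iff_eq] at this
  have hn : sqNorm (baseL (k / 2 * 2)).1 ≤ 1000000 := by rw [baseL_norm hk0]; norm_num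
  refine Subtype.ext (encI_inj ?_ ?_ ?_)
  · rw [show sqNorm (Om ^ (k % 2) • baseL (k / 2 * 2)).1 = sqNorm (baseL (k / 2 * 2)).1 from
      (Om ^ (k % 2)).2.2 _]
    exact hn
  · rw [baseL_norm h]; norm_num
  · refine (hasMat_om.acts_pow (k % 2) _ hn).trans ?_
    rw [baseL_coe hk0, baseL_coe h]
    exact this.2

/-- The group fixing the first vectors. -/
noncomputable def levX : ℕ → Subgroup Co0
  | 0 => Subgroup.centralizer ({Om} : Set Co0)
  | n + 1 => levX n ⊓ MulAction.stabilizer Co0 (baseL (2 * n))

theorem levX_le (n : ℕ) : levX n ≤ Subgroup.centralizer ({Om} : Set Co0) := by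
  induction n with
  | zero => exact le_rfl
  | succ n ih => exact inf_le_left.trans ih

theorem levX_fix {n : ℕ} {h : Co0} (hh : h ∈ levX n) :
    ∀ l < n, h • baseL (2 * l) = baseL (2 * l) := by
  induction n with
  | zero => intro l hl; omega
  | succ n ih =>
    intro l hl
    rcases Nat.lt_succ_iff_lt_or_eq.1 hl with hl | rfl
    · exact ih hh.1 l hl
    · exact hh.2

theorem levX_fix_translate {n : ℕ} {h : Co0} (hh : h ∈ levX n) {k : ℕ} (hk : k < 2 * n)
    (hk24 : k < 24) : h • baseL k = baseL k := by
  rw [← baseL_translate hk24]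
  refine smul_pow_fix (Subgroup.mem_centralizer_singleton_iff.1 (levX_le n hh)) ?_ _
  rw [mul_comm]
  exact levX_fix hh _ (by omega)

/-- The packed sum of some translates. -/
def combL : List ℕ → leechLattice
  | [] => 0
  | k :: l => baseL k + (128 : ℤ) • combL l

theorem combL_coe : ∀ l : List ℕ, (∀ k ∈ l, k < 24) → (combL l).1 = combF l
  | [], _ => rfl
  | k :: l, h => by
    rw [List.forall_mem_cons] at h
    rw [combL, combF, AddSubgroup.coe_add, AddSubgroup.coe_zsmul, baseL_coe h.1, combL_coe l h.2]

theorem combL_fix {n : ℕ} {h : Co0} (hh : h ∈ levX n) :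
    ∀ l : List ℕ, (∀ k ∈ l, k < 2 * n ∧ k < 24) → h • combL l = combL l
  | [], _ => by
    have := smul_zsmul h 0 0
    simpa [combL] using this
  | k :: l, hl => by
    rw [List.forall_mem_cons] at hl
    rw [combL, co0_add, smul_zsmul, levX_fix_translate hh hl.1.1 hl.1.2, combL_fix hh l hl.2]

theorem selIdx_lt {j : ℕ} (hj : j < 11) : ∀ k ∈ selIdx j, k < 2 * (j + 1) ∧ k < 24 := by
  intro k hk
  obtain ⟨z, hz, rfl⟩ := List.mem_map.1 hk
  have h := List.all_eq_true.1 (List.all_eq_true.1 sel_checks j (List.mem_range.2 hj)) z hz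
  simp only [Bool.and_eq_true, Nat.blt_eq] at h
  exact h.1

/-- Every minimal vector with the inner product of the first level is a candidate. -/
theorem exists_cand {w : leechLattice} (hw : sqNorm w.1 = 32)
    (h : dotInt (combL (selIdx 0)).1 w.1 = firstDot) : ∃ n ∈ candTab, vecN n = w.1 := by
  classical
  have hc := first_checks
  simp only [Bool.and_eq_true] at hc
  have hf := cand_facts
  simp only [Bool.and_eq_true] at hf
  have hu : (combL (selIdx 0)).1 = ofList firstVec := by
    rw [combL_coe _ fun k hk => (selIdx_lt (by norm_num) k hk).2]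
    exact eq_of_eqB hc.1
  have hlen := Nat.eq_of_beq_eq_true hc.2
  let L := minList.filter fun x => dotInt (ofList firstVec) x == firstDot
  have hok : ∀ n ∈ candTab, (vecN n ∈ leechLattice ∧ n < 16 ^ 24) ∧ sqNorm (vecN n) = 32 ∧
      dotInt (ofList firstVec) (vecN n) = firstDot := by
    intro n hn
    have := List.all_eq_true.1 cand_ok n hn
    simp only [candOK, Bool.and_eq_true, Nat.blt_eq, beq_iff_eq] at this
    exact ⟨⟨mem_of_inLeechB this.1.1.1, this.1.1.2⟩, this.1.2, by rw [← dotN_eq hlen]; exact this.2⟩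
  have hsub : candTab.toFinset.image vecN ⊆ L.toFinset := by
    intro x hx
    obtain ⟨n, hn, rfl⟩ := Finset.mem_image.1 hx
    rw [List.mem_toFinset] at hn
    obtain ⟨⟨h1, -⟩, h2, h3⟩ := hok n hn
    rw [List.mem_toFinset, List.mem_filter, beq_iff_eq]
    exact ⟨mem_minList h1 h2, h3⟩
  have hcard : L.toFinset.card ≤ (candTab.toFinset.image vecN).card := by
    rw [Finset.card_image_of_injOn fun m hm n hn e => vecN_inj (hok m (List.mem_toFinset.1 hm)).1.2
      (hok n (List.mem_toFinset.1 hn)).1.2 e, List.toFinset_card_of_nodup (nodup_of_incB hf.1),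
      Nat.eq_of_beq_eq_true hf.2, ← first_count, ← countP_minList _ hlen, List.countP_eq_length_filter]
    exact List.toFinset_card_le L
  have hwL : w.1 ∈ L.toFinset := by
    rw [List.mem_toFinset, List.mem_filter, beq_iff_eq]
    exact ⟨mem_minList w.2 hw, by rw [← hu]; exact h⟩
  rw [← Finset.eq_of_subset_of_card_le hsub hcard] at hwL
  obtain ⟨n, hn, e⟩ := Finset.mem_image.1 hwL
  exact ⟨n, List.mem_toFinset.1 hn, e⟩

theorem level_step {j : ℕ} (hj : j ∈ [0, 1, 2, 4, 5, 6, 7, 8, 9, 10]) {N : ℕ}
    (hN : (levCand j).length ≤ N) : Nat.card (levX (j + 1)) ≤ N * Nat.card (levX (j + 2)) := by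
  have hj11 : j < 11 := by fin_cases hj <;> norm_num
  have hfd := List.all_eq_true.1 first_dots j hj
  rw [beq_iff_eq] at hfd
  refine le_trans (index_step_list (levX (j + 1)) (baseL (2 * (j + 1)))
    ((levCand j).map vecN) fun g hg => ?_) ?_
  · have hb : 2 * (j + 1) < 24 := by omega
    have hsel : ∀ k ∈ selIdx 0, k < 2 * (j + 1) ∧ k < 24 := fun k hk => by
      obtain ⟨h1, h2⟩ := selIdx_lt (by norm_num : 0 < 11) k hk
      exact ⟨by omega, h2⟩
    obtain ⟨n, hn, e⟩ := exists_cand (w := g • baseL (2 * (j + 1)))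
      ((g.2.2 _).trans (baseL_norm hb)) (by
        conv_lhs => rw [← combL_fix hg (selIdx 0) hsel]
        rw [co0_dotInt, combL_coe _ (fun k hk => (hsel k hk).2), baseL_coe hb, ← dotL_eq]
        exact hfd)
    refine List.mem_map.2 ⟨n, List.mem_filter.2 ⟨hn, List.all_eq_true.2 fun z hz => ?_⟩, e⟩
    have hz' := List.all_eq_true.1 (List.all_eq_true.1 sel_checks j (List.mem_range.2 hj11)) z hz
    simp only [Bool.and_eq_true, Nat.blt_eq, beq_iff_eq] at hz'
    obtain ⟨⟨h1, h2⟩, h3⟩ := hz'
    rw [beq_iff_eq, dotN_eq (baseTab_len h2), e, show ofList (baseTab.getD z.1 []) = baseF z.1 from rfl,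
      ← baseL_coe h2]
    conv_lhs => rw [← levX_fix_translate hg h1 h2]
    rw [co0_dotInt, baseL_coe h2, baseL_coe hb, ← dotL_eq]
    exact h3
  · rw [List.length_map]
    exact Nat.mul_le_mul hN le_rfl

theorem out_step : Nat.card (levX 4) ≤ 32 * Nat.card (levX 5) := by
  have h := out_checks
  simp only [Bool.and_eq_true, beq_iff_eq] at h
  obtain ⟨⟨h1, h2⟩, h3⟩ := h
  have hlt : ∀ k ∈ selIdx 3, k < 24 := fun k hk => (selIdx_lt (by norm_num) k hk).2
  refine index_step (levX 4) (baseL (2 * 4)) (baseL_norm (by norm_num)) (combL (selIdx 3))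
    (fun g hg => combL_fix hg _ (selIdx_lt (by norm_num))) outVec (Nat.eq_of_beq_eq_true h2) ?_
    outDot ?_ 32 out_count.le
  · rw [combL_coe _ hlt]; exact (eq_of_eqB h1).symm
  · rw [combL_coe _ hlt, baseL_coe (by norm_num), ← dotL_eq]; exact h3

theorem levX_twelve : levX 12 = ⊥ := by
  rw [eq_bot_iff]
  intro g hg
  rw [Subgroup.mem_bot]
  refine eq_one_of_span (B := (List.range 24).map baseL) (D := 1) (C := spanTab) one_ne_zero ?_ ?_
  · rw [List.map_map]
    refine Eq.trans ?_ span_checks
    refine congrArg (fun B => spanOK B 1 spanTab) (List.map_congr_left fun k hk => ?_)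
    exact baseL_coe (List.mem_range.1 hk)
  · intro x hx
    obtain ⟨k, hk, rfl⟩ := List.mem_map.1 hx
    rw [List.mem_range] at hk
    exact levX_fix_translate hg (by omega) hk

theorem card_centralizer_le :
    Nat.card (Subgroup.centralizer ({Om} : Set Co0)) ≤ 6 * 448345497600 := by
  have h0 : Nat.card (levX 0) ≤ 196560 * Nat.card (levX 1) := by
    refine index_step (levX 0) (baseL 0) (baseL_norm (by norm_num)) 0 (fun g _ => ?_)
      (List.replicate 24 0) (by simp) ?_ 0 ?_ _ countMin_zero.le
    · simpa using smul_zsmul g 0 0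
    · funext p
      show (List.replicate 24 (0 : ℤ)).getD (ptIdx p) 0 = 0
      rw [List.getD_eq_getElem _ _ (by rw [List.length_replicate]; exact ptIdx_lt p),
        List.getElem_replicate]
    · simp [dotInt]
  have a0 := level_step (j := 0) (by decide) lev_card0
  have a1 := level_step (j := 1) (by decide) lev_card1.le
  have a2 := level_step (j := 2) (by decide) lev_card2.le
  have a3 := out_step
  have a4 := level_step (j := 4) (by decide) lev_card4.le
  have a5 := level_step (j := 5) (by decide) lev_card5.le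
  have a6 := level_step (j := 6) (by decide) lev_card6.le
  have a7 := level_step (j := 7) (by decide) lev_card7.le
  have a8 := level_step (j := 8) (by decide) lev_card8.le
  have a9 := level_step (j := 9) (by decide) lev_card9.le
  have a10 := level_step (j := 10) (by decide) lev_card10.le
  have h12 : Nat.card (levX 12) = 1 := by rw [levX_twelve]; exact Subgroup.card_bot
  show Nat.card (levX 0) ≤ _
  simp only [Nat.reduceAdd, one_mul] at a0 a1 a2 a3 a4 a5 a6 a7 a8 a9 a10
  omega

/-! ### The section -/

theorem card_cover : Nat.card cover = 6 * 448345497600 := by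
  rw [Subgroup.card_eq_card_quotient_mul_card_subgroup proj.ker,
    Nat.card_congr (QuotientGroup.quotientKerEquivOfSurjective proj SuzCover.proj_surjective).toEquiv,
    CosetEnum.Suzuki.main.2, SuzCover.proj_ker, SuzCover.card_kerZ, mul_comm]

/-- **The centraliser of the element is the cover.** -/
theorem centralizer_eq_cover : Subgroup.centralizer (threeA : Set Co0) = cover := by
  have : Finite Co0 := finite_Co0
  rw [threeA, Subgroup.zpowers_eq_closure, Subgroup.centralizer_closure]
  symm
  refine Subgroup.eq_of_le_of_card_ge (fun k hk => ?_) ?_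
  · exact Subgroup.mem_centralizer_singleton_iff.2 (SuzCover.Om_central k hk)
  · rw [card_cover]; exact card_centralizer_le

theorem threeA_sup_center : threeA ⊔ Subgroup.center Co0 = Subgroup.zpowers zel := by
  have hn : negCo0 ∈ Subgroup.center Co0 := SuzCover.negCo0_mem_center
  refine le_antisymm (sup_le ?_ ?_) (Subgroup.zpowers_le.2
    (mul_mem (Subgroup.mem_sup_left (Subgroup.mem_zpowers Om)) (Subgroup.mem_sup_right hn)))
  · rw [threeA, Subgroup.zpowers_le]
    refine ⟨4, ?_⟩
    show zel ^ (4 : ℤ) = Om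
    rw [show (4 : ℤ) = ((4 : ℕ) : ℤ) from rfl, zpow_natCast, zel, SuzCover.Om_neg_pow,
      pow_succ Om 3, SuzCover.Om_cube, one_mul, show 4 = 2 * 2 from rfl, pow_mul, pow_two negCo0,
      SuzCover.negCo0_sq, one_pow, mul_one]
  · intro c hc
    rcases (center_eq c).1 hc with rfl | rfl
    · exact one_mem _
    · refine ⟨3, ?_⟩
      show zel ^ (3 : ℤ) = negCo0
      rw [show (3 : ℤ) = ((3 : ℕ) : ℤ) from rfl, zpow_natCast, zel, SuzCover.Om_neg_pow,
        SuzCover.Om_cube, one_mul, pow_succ, pow_two, SuzCover.negCo0_sq, one_mul]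

/-- The projection of the centraliser onto the Suzuki group. -/
noncomputable def projC : ↥(Subgroup.centralizer (threeA : Set Co0)) →* Cfsg.Spor.Suz :=
  proj.comp (MulEquiv.subgroupCongr centralizer_eq_cover).toMonoidHom

theorem projC_surjective : Function.Surjective projC :=
  SuzCover.proj_surjective.comp (MulEquiv.subgroupCongr centralizer_eq_cover).surjective

theorem projC_ker : projC.ker =
    (threeA ⊔ Subgroup.center Co0).subgroupOf (Subgroup.centralizer (threeA : Set Co0)) := by
  ext c
  rw [Subgroup.mem_subgroupOf, threeA_sup_center, MonoidHom.mem_ker]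
  show proj (MulEquiv.subgroupCongr centralizer_eq_cover c) = 1 ↔ _
  rw [← MonoidHom.mem_ker, SuzCover.proj_ker, SuzCover.kerZ]
  constructor
  · rintro ⟨n, hn⟩
    exact ⟨n, congrArg Subtype.val hn⟩
  · rintro ⟨n, hn⟩
    exact ⟨n, Subtype.ext hn⟩

theorem sub_normal : ((threeA ⊔ Subgroup.center Co0).subgroupOf
    (Subgroup.centralizer (threeA : Set Co0))).Normal := projC_ker ▸ projC.normal_ker

/-- **The section is the Suzuki group.** -/
theorem nonempty_sect_iso :
    haveI := sub_normal
    Nonempty (Cfsg.Spor.Suz ≃* ↥(Subgroup.centralizer (threeA : Set Co0)) ⧸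
      (threeA ⊔ Subgroup.center Co0).subgroupOf (Subgroup.centralizer (threeA : Set Co0))) := by
  haveI := sub_normal
  exact ⟨((QuotientGroup.quotientMulEquivOfEq projC_ker.symm).trans
    (QuotientGroup.quotientKerEquivOfSurjective projC projC_surjective)).symm⟩

end Cfsg.Agent.Co0Sections.Three
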