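import Cfsg.Agent.Co0Sections.Packed
import Cfsg.Agent.Co0Sections.ThreeData
import Cfsg.Agent.SuzCover.Data
import Cfsg.Agent.Leech.MatCode

/-!
The computations on the table of the element of order 3 and on the candidate vectors.
-/

set_option autoImplicit false
-- one evaluation at a time, to bound the memory
set_option Elab.async false
set_option maxRecDepth 20000

namespace Cfsg.Agent.Co0Sections.Three

open Cfsg Cfsg.Agent.Golay Cfsg.Agent.Leech

/-- The image under the table, along positions. -/
def omL (x : GolayPt → ℤ) : GolayPt → ℤ := fun q => numL (ent omTab) x q / 8

theorem om_ok : (okR omTab && Nat.beq omTab.length 24 && (packR omTab == omPack) &&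
    sameI (powI omPack 3) id && movesI (appI omPack)) = true := by
  decide +kernel

theorem om_code : Nat.beq (packCols (dualVecs.map fun v => keyOf (omL v))) SuzCover.omCode = true := by
  decide +kernel

/-- The vectors. -/
def baseF (k : ℕ) : GolayPt → ℤ := ofList (baseTab.getD k [])

theorem base_checks : ((List.range 24).all fun k => inLeechB (baseF k) &&
    decide (sqNorm (baseF k) = 32) && Nat.beq (baseTab.getD k []).length 24 &&
    (powI omPack (k % 2) (encI (baseF (k / 2 * 2))) == encI (baseF k))) = true := by
  decide +kernel

/-- The packed sum of some translates. -/
def combF : List ℕ → GolayPt → ℤ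
  | [] => 0
  | k :: l => baseF k + (128 : ℤ) • combF l

/-- The translates used at a level. -/
def selIdx (j : ℕ) : List ℕ := (levSel.getD j []).map Prod.fst

/-- The check of a packed candidate. -/
def candOK (n : ℕ) : Bool :=
  inLeechB (vecN n) && Nat.blt n (16 ^ 24) && (sqNorm (vecN n) == 32) &&
    (dotN firstVec n == firstDot)

theorem cand0_ok : cand0.all candOK = true := by decide +kernel

theorem cand1_ok : cand1.all candOK = true := by decide +kernel

theorem cand2_ok : cand2.all candOK = true := by decide +kernel

theorem cand3_ok : cand3.all candOK = true := by decide +kernel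

theorem cand4_ok : cand4.all candOK = true := by decide +kernel

theorem cand5_ok : cand5.all candOK = true := by decide +kernel

theorem cand_ok : candTab.all candOK = true := by
  simp only [candTab, List.all_append, cand0_ok, cand1_ok, cand2_ok, cand3_ok, cand4_ok, cand5_ok,
    Bool.and_self]

theorem cand_facts : (incB candTab && Nat.beq candTab.length 891) = true := by decide +kernel

theorem first_checks : (eqB (ofList firstVec) (combF (selIdx 0)) && Nat.beq firstVec.length 24) = true := by
  decide +kernel

theorem out_checks : (eqB (ofList outVec) (combF (selIdx 3)) && Nat.beq outVec.length 24 &&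
    (dotL (combF (selIdx 3)) (baseF 8) == outDot)) = true := by
  decide +kernel

/-- The candidates having the prescribed inner products at a level. -/
def levCand (j : ℕ) : List ℕ :=
  candTab.filter fun w => (levSel.getD j []).all fun z => dotN (baseTab.getD z.1 []) w == z.2

theorem sel_checks : ((List.range 11).all fun j => (levSel.getD j []).all fun z =>
    Nat.blt z.1 (2 * (j + 1)) && Nat.blt z.1 24 && (dotL (baseF z.1) (baseF (2 * (j + 1))) == z.2)) = true := by
  decide +kernel

theorem first_dots : ([0, 1, 2, 4, 5, 6, 7, 8, 9, 10].all fun j =>
    dotL (combF (selIdx 0)) (baseF (2 * (j + 1))) == firstDot) = true := by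
  decide +kernel

theorem lev_card0 : (levCand 0).length ≤ 891 := (List.length_filter_le _ _).trans
  (le_of_eq (Nat.eq_of_beq_eq_true (Bool.and_eq_true_iff.1 cand_facts).2))

theorem lev_card1 : (levCand 1).length = 40 := by decide +kernel

theorem lev_card2 : (levCand 2).length = 3 := by decide +kernel

theorem lev_card4 : (levCand 4).length = 2 := by decide +kernel

theorem lev_card5 : (levCand 5).length = 1 := by decide +kernel

theorem lev_card6 : (levCand 6).length = 1 := by decide +kernel

theorem lev_card7 : (levCand 7).length = 2 := by decide +kernel

theorem lev_card8 : (levCand 8).length = 1 := by decide +kernel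

theorem lev_card9 : (levCand 9).length = 1 := by decide +kernel

theorem lev_card10 : (levCand 10).length = 1 := by decide +kernel

theorem span_checks : spanOK ((List.range 24).map baseF) 1 spanTab = true := by
  decide +kernel

end Cfsg.Agent.Co0Sections.Three
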